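import Cfsg.Agent.ONThree.Model
import Cfsg.Agent.CosetEnum.ONan.StepA
import Cfsg.Agent.CosetEnum.ONan.StepB
import Cfsg.Agent.CosetEnum.Glue

/-!
A group generated by six involutions with the Coxeter relations of the subgroup of index 122760
of the O'Nan group, and of full order, has a normal subgroup of index two isomorphic to the
projective special linear group of degree three over seven elements.
-/

set_option autoImplicit false
set_option maxRecDepth 20000

namespace Cfsg.Agent.ONThree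

open Cfsg.Agent.CosetCert Cfsg.Agent.CosetEnum

/-- The value of a letter. -/
def lf {Γ : Type*} [One Γ] (x : Fin 6 → Γ) (l : ℕ) : Γ :=
  [1, 1, 1, x 0, x 1, x 2, x 3, x 4, x 5].getD l 1

/-- The relators hold. -/
def SatRels {Γ : Type*} [Group Γ] (x : Fin 6 → Γ) : Prop :=
  (∀ k, x k * x k = 1) ∧ ∀ u ∈ ONan.stepA.words, pval (lf x) u = 1

theorem lf_inv {Γ : Type*} [Group Γ] {x : Fin 6 → Γ} (hx : ∀ k, x k * x k = 1) (l : ℕ) :
    lf x ([0, 2, 1, 3, 4, 5, 6, 7, 8].getD l 0) = (lf x l)⁻¹ := by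
  have hi : ∀ k, (x k)⁻¹ = x k := fun k => inv_eq_of_mul_eq_one_right (hx k)
  match l with
  | 0 => simp [lf]
  | 1 => simp [lf]
  | 2 => simp [lf]
  | 3 => simp [lf, hi]
  | 4 => simp [lf, hi]
  | 5 => simp [lf, hi]
  | 6 => simp [lf, hi]
  | 7 => simp [lf, hi]
  | 8 => simp [lf, hi]
  | n + 9 =>
    have h1 : [0, 2, 1, 3, 4, 5, 6, 7, 8].getD (n + 9) 0 = 0 := List.getD_eq_default _ _ (by simp)
    have h2 : lf x (n + 9) = 1 := List.getD_eq_default _ _ (by simp)
    rw [h1, h2, inv_one]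
    rfl

theorem lf_image {Γ : Type*} [Group Γ] (x : Fin 6 → Γ) :
    lf x '' {l | l ∈ ONan.stepA.letters} = Set.range x := by
  have hL : ONan.stepA.letters = [3, 4, 5, 6, 7, 8] := rfl
  ext y
  simp only [Set.mem_image, Set.mem_ofPred_eq, Set.mem_range, hL]
  constructor
  · rintro ⟨l, hl, rfl⟩
    simp only [List.mem_cons, List.not_mem_nil, or_false] at hl
    rcases hl with rfl | rfl | rfl | rfl | rfl | rfl
    exacts [⟨0, rfl⟩, ⟨1, rfl⟩, ⟨2, rfl⟩, ⟨3, rfl⟩, ⟨4, rfl⟩, ⟨5, rfl⟩]
  · rintro ⟨k, rfl⟩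
    refine ⟨k.val + 3, ?_, ?_⟩
    · fin_cases k <;> simp
    · fin_cases k <;> rfl

/-- The bound for six involutions satisfying the relators. -/
theorem closure_bound {Γ : Type*} [Group Γ] (x : Fin 6 → Γ) (hx : SatRels x) :
    Finite (Subgroup.closure (Set.range x)) ∧
      Nat.card (Subgroup.closure (Set.range x)) ≤ 3753792 := by
  obtain ⟨hinv, grel⟩ := hx
  set g := lf x with hg
  have g0 : g 0 = 1 := rfl
  have hi : ∀ l ∈ [3, 4, 5, 6, 7, 8], (g l)⁻¹ = g l := fun l hl => by
    have h := lf_inv hinv l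
    rw [(by decide +kernel : ∀ l ∈ [3, 4, 5, 6, 7, 8],
      [0, 2, 1, 3, 4, 5, 6, 7, 8].getD l 0 = l) l hl] at h
    exact h.symm
  have hF : pval g [6, 5, 6, 5, 6, 5, 6, 5, 3] = g 8 := by
    have h := grel [5, 6, 5, 6, 5, 6, 5, 6, 8, 3] (by decide +kernel)
    simp only [pval, one_mul] at h ⊢
    have e : g 8 = (g 3)⁻¹ * (g 3 * g 8 * g 6 * g 5 * g 6 * g 5 * g 6 * g 5 * g 6 * g 5) *
        (g 6 * g 5 * g 6 * g 5 * g 6 * g 5 * g 6 * g 5)⁻¹ := by group
    rw [h, mul_one] at e
    rw [e]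
    simp [mul_inv_rev, hi 3 (by decide), hi 5 (by decide), hi 6 (by decide), mul_assoc]
  have hrelB : ∀ u ∈ ONan.stepB.words, pval g u = 1 := by
    intro u hu
    have hsplit : ∀ u ∈ ONan.stepB.words, u ∈ ONan.stepA.words ∨
        u = [6, 5, 6, 5, 6, 5, 6, 5, 3] ++ [6, 5, 6, 5, 6, 5, 6, 5, 3] ∨
        ∃ y ∈ [3, 4, 5, 6], u = ([6, 5, 6, 5, 6, 5, 6, 5, 3] ++ [y]) ++ ([6, 5, 6, 5, 6, 5, 6, 5, 3] ++ [y]) := by
      decide +kernel
    rcases hsplit u hu with h | rfl | ⟨y, hy, rfl⟩
    · exact grel u h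
    · rw [pval_append, hF]
      simpa [pval] using grel [8, 8] (by decide +kernel)
    · rw [pval_append, pval_append, hF]
      have h := grel [8, y, 8, y] ((by decide +kernel : ∀ y ∈ [3, 4, 5, 6],
        [8, y, 8, y] ∈ ONan.stepA.words) y hy)
      simpa [pval, mul_assoc] using h
  have hb := bound_base ONan.stepB_valid g g0 (lf_inv hinv) hrelB rfl
  have ha := bound_step ONan.stepA_valid g g0 (lf_inv hinv) grel ONan.stepB.letters
    (by decide +kernel) hb
  rw [hg, lf_image] at ha
  exact ⟨ha.1, ha.2.trans (by decide +kernel)⟩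

/-- The relators in a direct product. -/
theorem SatRels.prod {Γ Δ : Type*} [Group Γ] [Group Δ] {x : Fin 6 → Γ} {y : Fin 6 → Δ}
    (hx : SatRels x) (hy : SatRels y) : SatRels fun k => (x k, y k) := by
  refine ⟨fun k => Prod.ext (hx.1 k) (hy.1 k), fun u hu => ?_⟩
  have key : ∀ l, lf (fun k => (x k, y k)) l = (lf x l, lf y l) := by
    intro l
    match l with
    | 0 | 1 | 2 | 3 | 4 | 5 | 6 | 7 | 8 => rfl
    | n + 9 => rfl
  have hp : ∀ w, pval (lf fun k => (x k, y k)) w = (pval (lf x) w, pval (lf y) w) := by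
    intro w
    induction w with
    | nil => rfl
    | cons l ls ih => simp only [pval, ih, key, Prod.mk_mul_mk]
  rw [hp, hx.2 u hu, hy.2 u hu]
  rfl

theorem pol_sq (k : Fin 6) : pol k * pol k = 1 :=
  Equiv.ext fun x => pol_invol k x

/-- A word of letters on numbered points. -/
def runL : List ℕ → ℕ → ℕ
  | [], n => n
  | l :: ls, n => runL ls
      (if h : 3 ≤ l ∧ l < 9 then tabApp ⟨l - 3, by omega⟩ n else n)

theorem rels_check : ONan.stepA.words.all (fun u => (List.range 114).all fun n =>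
    Nat.beq (runL u n) n) = true := by decide +kernel

theorem num_pval : ∀ (u : List ℕ) (p : PL), num (pval (lf pol) u p) = runL u (num p)
  | [], p => rfl
  | l :: ls, p => by
    rw [pval, Equiv.Perm.mul_apply, num_pval ls, runL]
    congr 1
    split_ifs with h
    · obtain ⟨h1, h2⟩ := h
      rw [polTab_ok]
      interval_cases l <;> rfl
    · match l, h with
      | 0, _ => rfl
      | 1, _ => rfl
      | 2, _ => rfl
      | n + 9, _ =>
        rw [show lf pol (n + 9) = 1 from List.getD_eq_default _ _ (by simp)]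
        rfl
      | 3, h | 4, h | 5, h | 6, h | 7, h | 8, h => exact absurd (by decide) h

theorem satRels_pol : SatRels pol := by
  refine ⟨pol_sq, fun u hu => Equiv.ext fun p => num_injective ?_⟩
  rw [num_pval, Equiv.Perm.one_apply]
  have hlt : num p < 114 := by
    rcases p with i | i <;> simp only [num, Sum.elim_inl, Sum.elim_inr] <;> omega
  exact Nat.eq_of_beq_eq_true
    (List.all_eq_true.1 (List.all_eq_true.1 rels_check u hu) _ (List.mem_range.2 hlt))

/-- Six involutions with the relators, generating a group of full order. -/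
theorem exists_normal_iso_of_rels {G : Type} [Group G] (x : Fin 6 → G) (hx : SatRels x)
    (hcard : Nat.card (Subgroup.closure (Set.range x)) = 3753792) :
    ∃ N : Subgroup (Subgroup.closure (Set.range x)), N.Normal ∧ N.index = 2 ∧
      Nonempty (N ≃* Matrix.ProjectiveSpecialLinearGroup (Fin 3) (ZMod 7)) :=
  exists_normal_iso x (closure_bound _ (hx.prod satRels_pol)) hcard

end Cfsg.Agent.ONThree
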