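import Cfsg.Agent.Linear.Transvection
import Cfsg.Agent.Linear.Orders

/-!
The extension of the projective special linear group of degree three over seven elements by the
transpose-inverse map, as permutations of the points and lines of the plane, with six generating
polarities.
-/

set_option autoImplicit false
set_option maxRecDepth 20000

namespace Cfsg.Agent.ONThree

open Matrix

/-- a vector over seven elements -/
abbrev V : Type := Fin 3 → ZMod 7

/-- points and lines -/
abbrev PL : Type := Fin 57 ⊕ Fin 57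

instance fact_seven : Fact (Nat.Prime 7) := ⟨by norm_num⟩

/-- inverse of a nonzero scalar -/
def sinv (x : ZMod 7) : ZMod 7 := x * x * x * x * x

/-- the number of a point -/
def idx (v : V) : Fin 57 :=
  if v 0 = 0 then (if v 1 = 0 then 56 else Fin.ofNat 57 (49 + (v 2 * sinv (v 1)).val))
  else Fin.ofNat 57 (7 * (v 1 * sinv (v 0)).val + (v 2 * sinv (v 0)).val)

/-- a vector of a point -/
def rep (i : Fin 57) : V :=
  if i.val < 49 then ![1, ((i.val / 7 : ℕ) : ZMod 7), ((i.val % 7 : ℕ) : ZMod 7)]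
  else if i.val < 56 then ![0, 1, ((i.val - 49 : ℕ) : ZMod 7)] else ![0, 0, 1]

theorem idx_rep : ∀ i, idx (rep i) = i ∧ rep i ≠ 0 := by decide +kernel

theorem idx_smul : ∀ (v : V) (c : ZMod 7), c ≠ 0 → idx (c • v) = idx v := by decide +kernel

theorem rep_idx : ∀ v : V, v ≠ 0 → ∃ c : ZMod 7, c ≠ 0 ∧ rep (idx v) = c • v := by decide +kernel

/-- a matrix applied to a vector -/
def app (A : Matrix (Fin 3) (Fin 3) (ZMod 7)) (v : V) : V :=
  ![A 0 0 * v 0 + A 0 1 * v 1 + A 0 2 * v 2, A 1 0 * v 0 + A 1 1 * v 1 + A 1 2 * v 2,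
    A 2 0 * v 0 + A 2 1 * v 1 + A 2 2 * v 2]

theorem app_eq (A : Matrix (Fin 3) (Fin 3) (ZMod 7)) (v : V) : app A v = A *ᵥ v := by
  funext i
  fin_cases i <;> simp [app, Matrix.mulVec, dotProduct, Fin.sum_univ_three]

/-- the map of points induced by a matrix -/
def act (A : Matrix (Fin 3) (Fin 3) (ZMod 7)) (i : Fin 57) : Fin 57 := idx (app A (rep i))

theorem act_mul (A B B' : Matrix (Fin 3) (Fin 3) (ZMod 7)) (hB : B' * B = 1) (i : Fin 57) :
    act A (act B i) = act (A * B) i := by
  have hne : B *ᵥ rep i ≠ 0 := fun h => (idx_rep i).2 (by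
    rw [← Matrix.one_mulVec (rep i), ← hB, ← Matrix.mulVec_mulVec, h, Matrix.mulVec_zero])
  obtain ⟨c, hc, e⟩ := rep_idx _ hne
  show idx (app A (rep (idx (app B (rep i))))) = idx (app (A * B) (rep i))
  simp only [app_eq]
  rw [e, Matrix.mulVec_smul, idx_smul _ _ hc, Matrix.mulVec_mulVec]

theorem act_one (i : Fin 57) : act 1 i = i := by
  rw [act, app_eq, Matrix.one_mulVec, (idx_rep i).1]

/-- the matrix acting on lines -/
def dual (A : Matrix (Fin 3) (Fin 3) (ZMod 7)) : Matrix (Fin 3) (Fin 3) (ZMod 7) :=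
  !![A 1 1 * A 2 2 - A 1 2 * A 2 1, -(A 1 0 * A 2 2) + A 1 2 * A 2 0, A 1 0 * A 2 1 - A 1 1 * A 2 0;
    -(A 0 1 * A 2 2) + A 0 2 * A 2 1, A 0 0 * A 2 2 - A 0 2 * A 2 0, -(A 0 0 * A 2 1) + A 0 1 * A 2 0;
    A 0 1 * A 1 2 - A 0 2 * A 1 1, -(A 0 0 * A 1 2) + A 0 2 * A 1 0, A 0 0 * A 1 1 - A 0 1 * A 1 0]

theorem dual_eq (A : Matrix (Fin 3) (Fin 3) (ZMod 7)) : dual A = A.adjugateᵀ := by
  rw [Matrix.adjugate_fin_three]
  ext i j
  fin_cases i <;> fin_cases j <;> simp [dual]

theorem dual_mul (A B : Matrix (Fin 3) (Fin 3) (ZMod 7)) : dual (A * B) = dual A * dual B := by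
  rw [dual_eq, dual_eq, dual_eq, Matrix.adjugate_mul_distrib, Matrix.transpose_mul]

theorem dual_one : dual 1 = 1 := by rw [dual_eq, Matrix.adjugate_one, Matrix.transpose_one]

/-- collineations -/
def sl : Matrix.SpecialLinearGroup (Fin 3) (ZMod 7) →* Equiv.Perm PL :=
  MonoidHom.toHomPerm
    { toFun := fun A => Sum.map (act A.1) (act (dual A.1))
      map_one' := funext fun i => by
        rcases i with i | i <;>
          simp [Matrix.SpecialLinearGroup.coe_one, act_one, dual_one] <;> rfl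
      map_mul' := fun A B => funext fun i => by
        have h1 : (B⁻¹).1 * B.1 = 1 := congrArg Subtype.val (inv_mul_cancel B)
        rcases i with i | i
        · exact congrArg Sum.inl (act_mul A.1 B.1 (B⁻¹).1 h1 i).symm
        · show Sum.inr (act (dual (A.1 * B.1)) i) = Sum.inr (act (dual A.1) (act (dual B.1) i))
          rw [dual_mul, act_mul (dual A.1) (dual B.1) (dual (B⁻¹).1) (by rw [← dual_mul, h1, dual_one])] }

theorem sl_apply (A : Matrix.SpecialLinearGroup (Fin 3) (ZMod 7)) (x : PL) :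
    sl A x = Sum.map (act A.1) (act (dual A.1)) x := rfl

theorem center_fix (A : Matrix.SpecialLinearGroup (Fin 3) (ZMod 7))
    (hA : A ∈ Subgroup.center (Matrix.SpecialLinearGroup (Fin 3) (ZMod 7))) : sl A = 1 := by
  obtain ⟨r, hr, e⟩ := Matrix.SpecialLinearGroup.mem_center_iff.1 hA
  have hr0 : r ≠ 0 := fun h => by simp [h] at hr
  have hA' : A.1 = r • (1 : Matrix (Fin 3) (Fin 3) (ZMod 7)) := by
    rw [← e, Matrix.scalar_apply, Matrix.smul_one_eq_diagonal]
  have hd : dual A.1 = (r * r) • (1 : Matrix (Fin 3) (Fin 3) (ZMod 7)) := by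
    rw [dual_eq, hA', Matrix.adjugate_smul, Matrix.adjugate_one, Matrix.transpose_smul,
      Matrix.transpose_one, Fintype.card_fin, pow_two]
  refine Equiv.ext fun x => ?_
  rw [sl_apply, hd, hA', Equiv.Perm.one_apply]
  rcases x with i | i
  · simp only [Sum.map_inl, act, app_eq, Matrix.smul_mulVec, Matrix.one_mulVec, idx_smul _ _ hr0,
      (idx_rep i).1]
  · simp only [Sum.map_inr, act, app_eq, Matrix.smul_mulVec, Matrix.one_mulVec,
      idx_smul _ _ (mul_ne_zero hr0 hr0), (idx_rep i).1]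

/-- the simple group acting on points and lines -/
def psl : Matrix.ProjectiveSpecialLinearGroup (Fin 3) (ZMod 7) →* Equiv.Perm PL :=
  QuotientGroup.lift _ sl fun A hA => center_fix A hA

/-- the map of a polarity -/
def polFun (M : Matrix (Fin 3) (Fin 3) (ZMod 7)) : PL → PL :=
  Sum.elim (fun i => Sum.inr (act M i)) (fun i => Sum.inl (act (dual M)ᵀ i))

/-- the matrices of the six polarities -/
def polMat : Fin 6 → Matrix (Fin 3) (Fin 3) (ZMod 7) := ![!![1, 1, 3; 1, 3, 1; 3, 1, 1], !![1, 1, 3; 1, 2, 2; 3, 2, 4], !![1, 0, 0; 0, 1, 0; 0, 0, 1], !![0, 0, 1; 0, 6, 2; 1, 2, 5], !![0, 3, 4; 3, 6, 6; 4, 6, 6], !![0, 0, 3; 0, 3, 0; 3, 0, 0]]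

theorem pol_invol : ∀ k x, polFun (polMat k) (polFun (polMat k) x) = x := by decide +kernel

/-- the six polarities -/
def pol (k : Fin 6) : Equiv.Perm PL := Function.Involutive.toPerm _ (pol_invol k)

/-- the value of a word -/
def polW (w : List (Fin 6)) : Equiv.Perm PL := (w.map pol).prod

/-- the extended group -/
def grp : Subgroup (Equiv.Perm PL) := Subgroup.closure (Set.range pol)

/-- words for the elementary transvections -/
def tvWords : List (Fin 3 × Fin 3 × List (Fin 6)) := [(0, 1, [3, 4, 2, 3, 0, 1, 2, 3, 4, 2, 3, 2, 3, 1, 2, 3, 4, 2, 3, 2, 3, 1, 2, 3, 0, 1]), (0, 2, [4, 3, 2, 3, 4, 2, 3, 1, 2, 3, 4, 1, 2, 3, 1, 2, 3, 4, 5, 1, 2, 3, 4, 2]), (1, 0, [4, 3, 0, 1, 2, 3, 1, 2, 3, 4, 3, 2, 3, 0, 1, 2, 3, 4, 2, 3, 1, 2, 3, 4, 2, 1]), (1, 2, [3, 0, 1, 2, 3, 4, 3, 2, 3, 0, 1, 2, 3, 4, 5, 2, 3, 0, 1, 2, 3, 4, 3, 1, 2, 3, 1, 0]), (2, 0, [4, 5, 3, 4, 2, 3, 1, 2, 3, 4, 1, 2, 3, 1, 2, 3, 4, 5, 3, 1, 2, 3, 4, 0]), (2, 1, [3, 2, 3, 4, 1, 2, 3, 2, 3, 1, 2, 3, 4, 5, 3, 2, 3, 4, 1,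 2, 3, 0, 1, 2, 3, 1])]

/-- an elementary matrix -/
def tm (i j : Fin 3) : Matrix (Fin 3) (Fin 3) (ZMod 7) :=
  Matrix.of fun a b => if a = b ∨ (a = i ∧ b = j) then 1 else 0

theorem tm_eq {i j : Fin 3} (h : i ≠ j) :
    (Matrix.SpecialLinearGroup.transvection h (1 : ZMod 7)).1 = tm i j := by
  refine (Matrix.SpecialLinearGroup.transvection_coe h (1 : ZMod 7)).trans ?_
  ext a b
  simp only [Matrix.transvection, Matrix.add_apply, Matrix.one_apply, Matrix.single_apply, tm,
    Matrix.of_apply]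
  fin_cases i <;> fin_cases j <;> fin_cases a <;> fin_cases b <;> first | exact absurd rfl h | decide

/-- tables of the polarities on numbered points and lines -/
def polTab : Fin 6 → ℕ := ![0x142a3e08a3316584955c8818f6e8dc264e952295a5c6b62404e13341462162bda1b3c443ab0880c3200c04100c6472c6a74561c761dcdd9127c29d9edbc91c2e71bf82f5dc59a846df2dd55994df45b5ab46da95e540c8f6cd1d6e74c192fe947cbbab43, 0x142a04ccb1f282c69c6cb4917021cdab3c108b414b0335327473848994a7469461342698855e219100081818120ca8f5cdd154759ec5cdd164c18eef35ac1c28f1a14a7539ee65c2d97eb68c32abc0c9b5eeb9996ec479574cdd56dfc6c56645e7dbf1c3, 0x1c376cd5a3364c582f5cb562b54a54274c95223448501f3c74e1b3464c172c54a13244480f1c3460b14244070c142030404071e1bf76dd9af569d19f365c98f161c17ef5db96ed59b15eb55a94e951a13e74d992e549911e345890e14180fdf3d78edd39, 0x2a621ce231c553966c888ac18ccda612bc91d145d0ae48d0a1332adb8d3e940b80c0c10508c0c1050804323c6858f6aa56cca39ddd6c5037c6bd61ce4a5c1d43d382757d99acc29efee6dc2fa9c5b5a3555a9772c479ae8637b6efc1dd2e44795266f1,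 0x140040c0c086441a8e0c75619148dc264e952290249b0d2eb4e1b22ada1e0e1061342698855e7ca0b54099965c3ca831289be173674d183ae4ee8efeb65a50ee71bf82f5dc4ea5ef8d43355a92b26daf01ec5996a9ea7da2c4d898ddec9f9e44e790adf0, 0x2a2a3919c0ec469f4a4ccab6e5051742b923436984af24759a222b06272cd94ad3c6858f6ac0c1050804320c0c1050805c39c73a3dcab03546b17a652c9c26c3a16b3dddb52fc2d12eb6cb72b2c5c13f7e2cd5e9c491bb4d19386cc1d6fde3b7cf5d71]

/-- the number of a point or line -/
def num : PL → ℕ := Sum.elim (fun i => i.val) (fun i => 57 + i.val)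

theorem num_injective : Function.Injective num := by
  rintro (i | i) (j | j) h <;> simp only [num, Sum.elim_inl, Sum.elim_inr] at h <;>
    first
      | exact congrArg Sum.inl (Fin.ext h)
      | exact congrArg Sum.inr (Fin.ext (by omega))
      | omega

/-- a tabled image -/
def tabApp (k : Fin 6) (n : ℕ) : ℕ := (polTab k >>> (7 * n)) % 128

theorem polTab_ok : ∀ (k : Fin 6) (x : PL), tabApp k (num x) = num (polFun (polMat k) x) := by
  decide +kernel

/-- a word applied to a number -/
def runW : List (Fin 6) → ℕ → ℕ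
  | [], n => n
  | k :: w, n => tabApp k (runW w n)

theorem polW_apply : ∀ (w : List (Fin 6)) (x : PL), num (polW w x) = runW w (num x)
  | [], _ => rfl
  | k :: w, x => by
    rw [polW, List.map_cons, List.prod_cons, Equiv.Perm.mul_apply, ← polW, runW, ← polW_apply w x,
      polTab_ok]
    rfl

theorem tv_check : tvWords.all (fun e => (List.finRange 57).all fun i =>
    Nat.beq (act (tm e.1 e.2.1) i).val (runW e.2.2 i.val) &&
      Nat.beq (57 + (act (dual (tm e.1 e.2.1)) i).val) (runW e.2.2 (57 + i.val))) = true := by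
  decide +kernel

theorem tv_pairs : ∀ i j : Fin 3, i ≠ j → ∃ e ∈ tvWords, e.1 = i ∧ e.2.1 = j := by decide +kernel

theorem tv_table {i j : Fin 3} (h : i ≠ j) : ∃ w, ∀ x,
    sl (Matrix.SpecialLinearGroup.transvection h 1) x = polW w x := by
  obtain ⟨e, he, rfl, rfl⟩ := tv_pairs i j h
  refine ⟨e.2.2, fun x => num_injective ?_⟩
  have hc := List.all_eq_true.1 tv_check e he
  rw [polW_apply, sl_apply, tm_eq]
  rcases x with k | k
  · exact Nat.eq_of_beq_eq_true ((Bool.and_eq_true _ _).mp
      (List.all_eq_true.1 hc k (List.mem_finRange k))).1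
  · exact Nat.eq_of_beq_eq_true ((Bool.and_eq_true _ _).mp
      (List.all_eq_true.1 hc k (List.mem_finRange k))).2

theorem polW_mem (w : List (Fin 6)) : polW w ∈ grp :=
  Subgroup.list_prod_mem _ fun g hg => by
    obtain ⟨k, -, rfl⟩ := List.mem_map.1 hg
    exact Subgroup.subset_closure ⟨k, rfl⟩

theorem transvection_pow {i j : Fin 3} (h : i ≠ j) : ∀ n : ℕ,
    Matrix.SpecialLinearGroup.transvection h (1 : ZMod 7) ^ n =
      Matrix.SpecialLinearGroup.transvection h (n : ZMod 7)
  | 0 => by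
    refine Subtype.ext ?_
    simp [Matrix.SpecialLinearGroup.transvection_coe, Matrix.transvection]
  | n + 1 => by
    rw [pow_succ, transvection_pow h n]
    refine Subtype.ext ?_
    refine (Linear.val_mul _ _).trans ?_
    simp only [Matrix.SpecialLinearGroup.transvection_coe, Nat.cast_add, Nat.cast_one]
    exact Matrix.transvection_mul_transvection_same (i := i) (j := j) h (n : ZMod 7) 1

theorem tv_mem {i j : Fin 3} (h : i ≠ j) (c : ZMod 7) :
    sl (Matrix.SpecialLinearGroup.transvection h c) ∈ grp := by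
  have hc : Matrix.SpecialLinearGroup.transvection h c =
      Matrix.SpecialLinearGroup.transvection h (1 : ZMod 7) ^ c.val := by
    rw [transvection_pow h, ZMod.natCast_zmod_val]
  obtain ⟨w, hw⟩ := tv_table h
  rw [hc, map_pow, Equiv.ext hw]
  exact pow_mem (polW_mem w) _

theorem sl_range_le : sl.range ≤ grp := by
  rintro _ ⟨A, rfl⟩
  exact Linear.transvection_induction (F := ZMod 7) (fun B => sl B ∈ grp)
    (fun i j h c => tv_mem h c)
    (fun B C hB hC => by
      show sl (B * C) ∈ grp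
      rw [map_mul]; exact mul_mem hB hC) A

theorem psl_range_le : psl.range ≤ grp := by
  rintro _ ⟨q, rfl⟩
  obtain ⟨A, rfl⟩ := QuotientGroup.mk'_surjective _ q
  exact sl_range_le ⟨A, rfl⟩

theorem psl_injective : Function.Injective psl := by
  haveI := Linear.isSimpleGroup_PSL (F := ZMod 7) (ι := Fin 3) (by simp)
  rw [← MonoidHom.ker_eq_bot_iff]
  refine (psl.normal_ker.eq_bot_or_eq_top).resolve_right fun h => ?_
  have h1 : sl (Matrix.SpecialLinearGroup.transvection
      (show (0 : Fin 3) ≠ 1 by decide) 1) (Sum.inl (idx ![0, 1, 0])) = Sum.inl (idx ![0, 1, 0]) := by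
    have := MonoidHom.mem_ker.1 (show QuotientGroup.mk (Matrix.SpecialLinearGroup.transvection
      (show (0 : Fin 3) ≠ 1 by decide) (1 : ZMod 7)) ∈ psl.ker from h ▸ Subgroup.mem_top _)
    exact Equiv.Perm.congr_fun this _
  rw [sl_apply, tm_eq] at h1
  exact absurd h1 (by decide +kernel)

theorem card_psl : Nat.card (Matrix.ProjectiveSpecialLinearGroup (Fin 3) (ZMod 7)) = 1876896 := by
  have h1 := Linear.card_SL_mul (F := ZMod 7) 3
  have h2 := Linear.card_PSL_mul (F := ZMod 7) (ι := Fin 3)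
  rw [← h2, ZMod.card, Fintype.card_fin, Fin.prod_univ_three, show Nat.gcd 3 (7 - 1) = 3 by decide,
    ← mul_assoc] at h1
  refine Nat.eq_of_mul_eq_mul_left (show 0 < (7 - 1) * 3 by norm_num) (h1.trans ?_)
  decide +kernel

theorem card_psl_range : Nat.card psl.range = 1876896 := by
  rw [← Nat.card_congr (MonoidHom.ofInjective psl_injective).toEquiv, card_psl]

theorem psl_range_inl (q : Matrix.ProjectiveSpecialLinearGroup (Fin 3) (ZMod 7)) :
    ∃ i, psl q (Sum.inl 0) = Sum.inl i := by
  obtain ⟨A, rfl⟩ := QuotientGroup.mk'_surjective _ q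
  exact ⟨_, rfl⟩

theorem pol_notMem : pol 0 ∉ psl.range := by
  rintro ⟨q, hq⟩
  obtain ⟨i, hi⟩ := psl_range_inl q
  rw [hq] at hi
  exact Sum.inr_ne_inl hi

theorem two_mul_le_card_grp : 2 * 1876896 ≤ Nat.card grp := by
  have hlt : psl.range < grp :=
    lt_of_le_of_ne psl_range_le fun h => pol_notMem (h ▸ Subgroup.subset_closure ⟨0, rfl⟩)
  have hmul := Subgroup.card_mul_index (psl.range.subgroupOf grp)
  rw [Nat.card_congr (Subgroup.subgroupOfEquivOfLe psl_range_le).toEquiv, card_psl_range] at hmul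
  have hne : (psl.range.subgroupOf grp).index ≠ 1 := by
    rw [Ne, Subgroup.index_eq_one, Subgroup.subgroupOf_eq_top]
    exact not_le_of_gt hlt
  have hpos : 0 < Nat.card grp := Nat.card_pos
  rcases Nat.eq_zero_or_pos (psl.range.subgroupOf grp).index with h0 | h0
  · rw [h0] at hmul; omega
  · rw [← hmul]
    calc 2 * 1876896 = 1876896 * 2 := by norm_num
      _ ≤ _ := Nat.mul_le_mul_left _ (by omega)

/-- A group of order at most twice the simple group, mapping compatibly onto the generators, has a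
normal subgroup of index two isomorphic to it. -/
theorem exists_normal_iso {G : Type} [Group G] (g : Fin 6 → G)
    (hbound : Finite (Subgroup.closure (Set.range fun k => (g k, pol k))) ∧
      Nat.card (Subgroup.closure (Set.range fun k => (g k, pol k))) ≤ 3753792)
    (hcard : Nat.card (Subgroup.closure (Set.range g)) = 3753792) :
    ∃ N : Subgroup (Subgroup.closure (Set.range g)), N.Normal ∧ N.index = 2 ∧
      Nonempty (N ≃* Matrix.ProjectiveSpecialLinearGroup (Fin 3) (ZMod 7)) := by
  set D := Subgroup.closure (Set.range fun k => (g k, pol k)) with hD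
  haveI : Finite D := hbound.1
  let p1 := (MonoidHom.fst G (Equiv.Perm PL)).comp D.subtype
  let p2 := (MonoidHom.snd G (Equiv.Perm PL)).comp D.subtype
  have hr1 : p1.range = Subgroup.closure (Set.range g) := by
    rw [MonoidHom.range_comp, Subgroup.range_subtype, hD, MonoidHom.map_closure]
    congr 1
    exact (Set.range_comp _ _).symm
  have hr2 : p2.range = grp := by
    rw [MonoidHom.range_comp, Subgroup.range_subtype, hD, MonoidHom.map_closure]
    congr 1
    exact (Set.range_comp _ _).symm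
  have hbij : ∀ {K : Type} [Group K] (p : D →* K), 3753792 ≤ Nat.card p.range → Function.Injective p := by
    intro K _ p hp
    rw [← MonoidHom.ker_eq_bot_iff, ← Subgroup.card_eq_one]
    have h := Subgroup.card_mul_index p.ker
    rw [Subgroup.index_ker] at h
    have hb := hbound.2
    have hpos : 0 < Nat.card p.ker := Nat.card_pos
    by_contra hne
    have h2 : 2 * Nat.card p.range ≤ Nat.card p.ker * Nat.card p.range :=
      Nat.mul_le_mul_right _ (by omega)
    omega
  have h1 : Function.Injective p1 := hbij p1 (by rw [hr1, hcard])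
  have h2 : Function.Injective p2 := hbij p2 (by rw [hr2]; exact two_mul_le_card_grp)
  let E : Subgroup.closure (Set.range g) ≃* grp :=
    ((MulEquiv.subgroupCongr hr1).symm.trans (MonoidHom.ofInjective h1).symm).trans
      ((MonoidHom.ofInjective h2).trans (MulEquiv.subgroupCongr hr2))
  let N := (psl.range.subgroupOf grp).comap E.toMonoidHom
  have hidx : N.index = 2 := by
    rw [Subgroup.index_comap_of_surjective _ E.surjective]
    have hmul := Subgroup.card_mul_index (psl.range.subgroupOf grp)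
    rw [Nat.card_congr (Subgroup.subgroupOfEquivOfLe psl_range_le).toEquiv, card_psl_range,
      ← Nat.card_congr E.toEquiv, hcard] at hmul
    omega
  refine ⟨N, Subgroup.normal_of_index_eq_two hidx, hidx, ⟨?_⟩⟩
  exact ((E.subgroupMap N).trans (MulEquiv.subgroupCongr
    (Subgroup.map_comap_eq_self_of_surjective E.surjective _))).trans
      ((Subgroup.subgroupOfEquivOfLe psl_range_le).trans (MonoidHom.ofInjective psl_injective).symm)

end Cfsg.Agent.ONThree
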