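import Cfsg.Agent.ONThree.Iso
import Cfsg.Prelude.Def_Spor_ON

/-!
The subgroup of the presented O'Nan group generated by the six Coxeter generators.
-/

set_option autoImplicit false
set_option maxRecDepth 20000

namespace Cfsg.Agent.ONThree

open Cfsg.Spor Cfsg.Agent.CosetCert Cfsg.Agent.CosetEnum

/-- The six generators. -/
def fgen : Fin 6 → FreeGroup ON.Gen := ![ON.a, ON.b, ON.c, ON.d, ON.e, ON.f]

/-- The relators of the group. -/
abbrev onRels : Set (FreeGroup ON.Gen) := coxRelators ON.edges ∪ {r | r ∈ ON.extra}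

/-- Their images. -/
def onGen (k : Fin 6) : PresentedGroup onRels := PresentedGroup.mk onRels (fgen k)

theorem mk_eq_one {r : FreeGroup ON.Gen} (h : r ∈ coxList ON.edges ON.extra) :
    PresentedGroup.mk onRels r = 1 :=
  PresentedGroup.one_of_mem ((mem_coxList _ _ r).2 h)

theorem mk_pval (u : List ℕ) :
    PresentedGroup.mk onRels (pval (lf fgen) u) = pval (lf onGen) u := by
  induction u with
  | nil => simp [pval]
  | cons l ls ih =>
    rw [pval, pval, map_mul, ih]
    congr 1
    match l with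
    | 0 | 1 | 2 => exact map_one _
    | 3 | 4 | 5 | 6 | 7 | 8 => rfl
    | n + 9 =>
      rw [show lf fgen (n + 9) = 1 from List.getD_eq_default _ _ (by simp),
        show lf onGen (n + 9) = 1 from List.getD_eq_default _ _ (by simp), map_one]

theorem onGen_sq (k : Fin 6) : onGen k * onGen k = 1 := by
  have h : ∀ k, fgen k * fgen k ∈ coxList ON.edges ON.extra := by decide +kernel
  rw [onGen, ← map_mul]
  exact mk_eq_one (h k)

theorem satRels_onGen : SatRels onGen := by
  refine ⟨onGen_sq, fun u hu => ?_⟩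
  have hsplit : ∀ u ∈ ONan.stepA.words, pval (lf fgen) u ∈ coxList ON.edges ON.extra ∨
      u = [5, 6, 5, 6, 5, 6, 5, 6, 8, 3] := by decide +kernel
  rcases hsplit u hu with h | rfl
  · rw [← mk_pval, mk_eq_one h]
  · have h := mk_eq_one (r := (ON.a * ON.f) * (((ON.c * ON.d) ^ 4)⁻¹)) (by decide +kernel)
    have hc : (onGen 2)⁻¹ = onGen 2 := inv_eq_of_mul_eq_one_right (onGen_sq 2)
    have hd : (onGen 3)⁻¹ = onGen 3 := inv_eq_of_mul_eq_one_right (onGen_sq 3)
    rw [map_mul, map_mul, map_inv, map_pow, map_mul] at h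
    change onGen 0 * onGen 5 * ((onGen 2 * onGen 3) ^ 4)⁻¹ = 1 at h
    rw [← inv_pow, mul_inv_rev, hc, hd] at h
    refine Eq.trans ?_ h
    simp [pval, lf, pow_succ, mul_assoc]

theorem closure_eq :
    (Subgroup.closure ({ON.a, ON.b, ON.c, ON.d, ON.e, ON.f} : Set (FreeGroup ON.Gen))).map
      (PresentedGroup.mk onRels) = Subgroup.closure (Set.range onGen) := by
  rw [MonoidHom.map_closure]
  congr 1
  have e : Set.range fgen = {ON.a, ON.b, ON.c, ON.d, ON.e, ON.f} := by
    ext r
    simp only [Set.mem_range, Set.mem_insert_iff, Set.mem_singleton_iff]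
    constructor
    · rintro ⟨k, rfl⟩
      fin_cases k <;> simp [fgen]
    · rintro (rfl | rfl | rfl | rfl | rfl | rfl)
      exacts [⟨0, rfl⟩, ⟨1, rfl⟩, ⟨2, rfl⟩, ⟨3, rfl⟩, ⟨4, rfl⟩, ⟨5, rfl⟩]
  rw [← e, ← Set.range_comp]
  rfl

/-- Given the order and the index, the subgroup has a normal subgroup of index two of the shape. -/
theorem exists_normal_psl (hG : Nat.card Cfsg.Spor.ON = 460815505920)
    (hidx : ((Subgroup.closure ({ON.a, ON.b, ON.c, ON.d, ON.e, ON.f} :
      Set (FreeGroup ON.Gen))).map (PresentedGroup.mk onRels)).index = 122760) :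
    ∃ N : Subgroup ((Subgroup.closure ({ON.a, ON.b, ON.c, ON.d, ON.e, ON.f} :
      Set (FreeGroup ON.Gen))).map (PresentedGroup.mk onRels)), N.Normal ∧ N.index = 2 ∧
      Nonempty (N ≃* Matrix.ProjectiveSpecialLinearGroup (Fin 3) (ZMod 7)) := by
  have h := Subgroup.card_mul_index ((Subgroup.closure ({ON.a, ON.b, ON.c, ON.d, ON.e, ON.f} :
    Set (FreeGroup ON.Gen))).map (PresentedGroup.mk onRels))
  rw [hidx] at h
  have hG' : Nat.card (PresentedGroup onRels) = 460815505920 := hG
  rw [hG'] at h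
  rw [closure_eq] at h ⊢
  refine exists_normal_iso_of_rels onGen satRels_onGen
    (Nat.eq_of_mul_eq_mul_right (show 0 < 122760 by norm_num) (h.trans ?_))
  decide +kernel

end Cfsg.Agent.ONThree
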